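import Cfsg.Agent.H670.TIx.Base
import Cfsg.Agent.CpAutTits.Row
import Cfsg.Agent.H488.PBRow.TitsThree
import Cfsg.Agent.H438.TI.Loc
import Cfsg.Agent.H235.TitsRow

/-!
# The numbers of classes of `N(P)/P`, `P` Sylow 5-subgroup of the Tits group (14) and of `²F₄(2)` (16)
(helper670, S4819 / S4820, piece (D))
-/

set_option autoImplicit false

namespace Cfsg.Agent.H670.TIx

open Subgroup Cfsg.Agent.CpAutTits

universe u v

theorem Hyp_congr {G : Type u} {G' : Type v} [Group G] [Group G'] {P : Subgroup G} (h : Hyp P) (e : G ≃* G') :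
    Hyp (P.map e.toMonoidHom) where
  card := by rw [← h.card]; exact (Nat.card_congr e.toEquiv).symm
  cardP := by rw [← h.cardP]; exact (Nat.card_congr (P.equivMapOfInjective e.toMonoidHom e.injective).toEquiv).symm
  exp := by
    rintro _ ⟨a, ha, rfl⟩
    show e a ^ 5 = 1
    rw [← map_pow, h.exp a ha, map_one]
  comm := by
    rintro _ ⟨a, ha, rfl⟩ _ ⟨b, hb, rfl⟩
    show e a * e b = e b * e a
    rw [← map_mul, h.comm a ha b hb, map_mul]
  fus := by
    rintro _ ⟨a, ha, rfl⟩ ha1 _ ⟨b, hb, rfl⟩ hb1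
    obtain ⟨g, hg, h1⟩ := h.fus a ha (fun h1 => ha1 (by rw [h1, map_one])) b hb (fun h1 => hb1 (by rw [h1, map_one]))
    refine ⟨e g, ?_, ?_⟩
    · rw [mem_normalizer_iff] at hg ⊢
      intro x
      obtain ⟨x, rfl⟩ := e.surjective x
      have h2 : ∀ y : G, e y ∈ P.map e.toMonoidHom ↔ y ∈ P := by
        intro y
        constructor
        · rintro ⟨z, hz, hzy⟩
          rwa [← e.injective hzy]
        · intro hy; exact ⟨y, hy, rfl⟩
      rw [← map_inv, ← map_mul, ← map_mul]
      exact (h2 x).trans ((hg x).trans (h2 _).symm)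
    · show e g * e a * (e g)⁻¹ = e b
      rw [← h1, map_mul, map_mul, map_inv]
  ten := by
    intro y hy i hi hc
    have h1 := h.ten (e.symm y) (by rw [MulEquiv.orderOf_eq, hy]) (e.symm i) (by rw [MulEquiv.orderOf_eq, hi])
      (by rw [← map_mul, hc, map_mul])
    have h2 := Ten.card_inf_equiv e (e.symm y) (e.symm i)
    rw [e.apply_symm_apply, e.apply_symm_apply, h1] at h2
    exact h2
  ex := by
    obtain ⟨y, i, hy, hi, hc⟩ := h.ex
    exact ⟨e y, e i, by rw [MulEquiv.orderOf_eq, hy], by rw [MulEquiv.orderOf_eq, hi], by rw [← map_mul, hc, map_mul]⟩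

section

open Cfsg.Agent.Omega.TwoF.Tits Cfsg.Agent.Omega.TwoF.Scalar Cfsg.Agent.Omega.TwoF.Orb
  Cfsg.Agent.ChevalleyStructure.Tits.Main

theorem hyp_C {X : Type} [Group X] (e : C ≃* X)
    (hten : ∀ y : X, orderOf y = 5 → ∀ i, orderOf i = 2 → i * y = y * i →
      Nat.card ↥(centralizer ({y} : Set X) ⊓ centralizer ({i} : Set X)) = 10)
    (hex : ∃ y i : X, orderOf y = 5 ∧ orderOf i = 2 ∧ i * y = y * i) : ∃ P : Subgroup X, Hyp P := by
  have h := Row.hyp_of_ten (G := C) e hten hex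
  exact ⟨_, Hyp_congr (Fus.hyp h.1 h.2) e⟩

end

theorem hyp_TT_aux (K : Subgroup (Matrix.GeneralLinearGroup Cfsg.Agent.ChevalleyStructure.Tits.Mat.I52 (ZMod 2)))
    (hK : K = Cfsg.Agent.ChevalleyStructure.Tits.Order.H0)
    (e : Nonempty (↥(_root_.commutator K) ≃* ↥Cfsg.Agent.TitsK.TT)) : ∃ P : Subgroup ↥Cfsg.Agent.TitsK.TT, Hyp P := by
  subst hK
  obtain ⟨e⟩ := e
  exact hyp_C e Ten.facts.ten ⟨Ten.facts.xT, Ten.facts.zT, Ten.facts.order_x, Ten.facts.order_z, Ten.facts.comm_zx⟩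

theorem hyp_TT : ∃ P : Subgroup ↥Cfsg.Agent.TitsK.TT, Hyp P :=
  hyp_TT_aux (Cfsg.Lie.twistedF4 (ZMod 2) 1) Cfsg.Agent.ChevalleyStructure.Tits.Main.T0_eq_H0
    Cfsg.Agent.TitsK.exists_equiv

theorem hyp_tits {T : Type u} [Group T] (h : Lie.IsoTits T) : ∃ P : Subgroup T, Hyp P := by
  obtain ⟨e⟩ := Row.exists_equiv h
  obtain ⟨P, hP⟩ := hyp_TT
  exact ⟨_, Hyp_congr hP e.symm⟩

/-- every Sylow 5-subgroup -/
theorem hyp_syl {T : Type u} [Group T] [Finite T] [Fact (Nat.Prime 5)] (h : Lie.IsoTits T) (Q : Sylow 5 T) :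
    Hyp (Q : Subgroup T) := by
  obtain ⟨P, hP⟩ := hyp_tits h
  let P' : Sylow 5 T := hP.isPGroup.toSylow (by rw [hP.index]; norm_num)
  obtain ⟨g, hg⟩ := MulAction.exists_smul_eq T P' Q
  have h1 := Hyp_congr hP (MulAut.conj g)
  have h2 : P.map (MulAut.conj g).toMonoidHom = (Q : Subgroup T) := by
    rw [← hg, Sylow.coe_subgroup_smul]
    rfl
  rw [h2] at h1
  exact h1

/-- the local data of `N(P)` -/
theorem base_of_hyp {T : Type u} [Group T] [Finite T] {PT : Subgroup T} (h : Hyp PT)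
    (h3 : ∀ t : T, orderOf t = 3 → Nat.card (centralizer ({t} : Set T)) = 108) {M : Type v} [Group M] (ι : M →* T)
    (hι : Function.Injective ι) (hr : ι.range = normalizer (PT : Set T)) : Base (PT.comap ι) := by
  have hle : PT ≤ normalizer (PT : Set T) := le_normalizer
  have hmap : (PT.comap ι).map ι = PT := by
    rw [map_comap_eq, hr]
    exact inf_eq_right.2 hle
  have hfin : Finite M := Finite.of_injective ι hι
  have hcent : ∀ a : M, Nat.card (centralizer ({a} : Set M)) ∣ Nat.card (centralizer ({ι a} : Set T)) := by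
    intro a
    rw [Nat.card_congr ((centralizer ({a} : Set M)).equivMapOfInjective ι hι).toEquiv]
    apply Subgroup.card_dvd_of_le
    rintro _ ⟨c, hc, rfl⟩
    rw [mem_centralizer_singleton_iff, ← map_mul, mem_centralizer_singleton_iff.1 hc, map_mul]
  constructor
  · refine ⟨fun a ha g => ?_⟩
    show ι (g * a * g⁻¹) ∈ PT
    rw [map_mul, map_mul, map_inv]
    have hg : ι g ∈ normalizer (PT : Set T) := hr ▸ ⟨g, rfl⟩
    exact (mem_normalizer_iff.1 hg _).1 ha
  · rw [← h.cardP, ← Nat.card_congr ((PT.comap ι).equivMapOfInjective ι hι).symm.toEquiv, hmap]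
  · intro a ha b hb
    apply hι
    rw [map_mul, map_mul]
    exact h.comm _ ha _ hb
  · intro a ha
    apply hι
    rw [map_pow, map_one]
    exact h.exp _ ha
  · intro a ha ha1 b hb hb1
    obtain ⟨g, hg, h1⟩ := h.fus (ι a) ha (fun h1 => ha1 (hι (by rw [h1, map_one]))) (ι b) hb
      (fun h1 => hb1 (hι (by rw [h1, map_one])))
    rw [← hr] at hg
    obtain ⟨g, rfl⟩ := hg
    exact ⟨g, hι (by rw [map_mul, map_mul, map_inv]; exact h1)⟩
  · intro a ha ha1
    have ho : orderOf (ι a) = 5 := by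
      have : Fact (Nat.Prime 5) := ⟨Nat.prime_five⟩
      exact orderOf_eq_prime (h.exp _ ha) (fun h1 => ha1 (hι (by rw [h1, map_one])))
    rw [← h.card_cent_mem ha ho]
    have h1 : (centralizer ({a} : Set M)).map ι = centralizer ({ι a} : Set T) := by
      ext c
      constructor
      · rintro ⟨c, hc, rfl⟩
        rw [mem_centralizer_singleton_iff, ← map_mul, mem_centralizer_singleton_iff.1 hc, map_mul]
      · intro hc
        have h2 := h.le_normalizer ha ho hc
        rw [← hr] at h2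
        obtain ⟨c, rfl⟩ := h2
        refine ⟨c, mem_centralizer_singleton_iff.2 (hι ?_), rfl⟩
        rw [map_mul, map_mul]
        exact mem_centralizer_singleton_iff.1 hc
    rw [← h1]
    exact Nat.card_congr ((centralizer ({a} : Set M)).equivMapOfInjective ι hι).toEquiv
  · intro i hi
    by_contra hcon
    push Not at hcon
    -- an element of order 5
    obtain ⟨y, hy, hy1⟩ : ∃ y ∈ PT, y ≠ 1 := by
      by_contra h1
      push Not at h1
      have h2 : PT = ⊥ := (Subgroup.eq_bot_iff_forall _).2 h1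
      have h3 := h.cardP
      rw [h2, Subgroup.card_bot] at h3
      omega
    have ho : orderOf y = 5 := by
      have : Fact (Nat.Prime 5) := ⟨Nat.prime_five⟩
      exact orderOf_eq_prime (h.exp _ hy) hy1
    have hall : ∀ p ∈ PT, ι i * p = p * ι i := by
      intro p hp
      rw [← hmap] at hp
      obtain ⟨p, hp, rfl⟩ := hp
      rw [← map_mul, hcon p hp, map_mul]
    have h1 := h.ten y ho (ι i) (by rw [orderOf_injective ι hι, hi]) (hall y hy)
    have h2 : PT ≤ centralizer ({y} : Set T) ⊓ centralizer ({ι i} : Set T) := by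
      intro p hp
      exact ⟨mem_centralizer_singleton_iff.2 (h.comm p hp y hy), mem_centralizer_singleton_iff.2 (hall p hp).symm⟩
    have h3 := Subgroup.card_dvd_of_le h2
    rw [h1, h.cardP] at h3
    omega
  · intro t ht h8
    have h1 := h8.trans (hcent t)
    rw [h3 (ι t) (by rw [orderOf_injective ι hι, ht])] at h1
    omega

theorem exists_pair {T : Type u} [Group T] [Finite T] {PT : Subgroup T} (h : Hyp PT) :
    ∃ y ∈ PT, y ≠ 1 ∧ orderOf y = 5 ∧ ∃ i : T, orderOf i = 2 ∧ i * y = y * i := by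
  obtain ⟨y, hy, hy1⟩ : ∃ y ∈ PT, y ≠ 1 := by
    by_contra h1
    push Not at h1
    have h2 : PT = ⊥ := (Subgroup.eq_bot_iff_forall _).2 h1
    have h3 := h.cardP
    rw [h2, Subgroup.card_bot] at h3
    omega
  have ho : orderOf y = 5 := by
    have : Fact (Nat.Prime 5) := ⟨Nat.prime_five⟩
    exact orderOf_eq_prime (h.exp _ hy) hy1
  exact ⟨y, hy, hy1, ho, h.exists_inv ho⟩

/-- **Tits group: `k(N(P)/P) = 14`** -/
theorem count_tits {T : Type u} [Group T] [Finite T] [Fact (Nat.Prime 5)] (h : Lie.IsoTits T) (P : Sylow 5 T) :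
    Nat.card (ConjClasses (↥(normalizer ((P : Subgroup T) : Set T)) ⧸
      ((P : Subgroup T).subgroupOf (normalizer ((P : Subgroup T) : Set T))))) = 14 := by
  have hH := hyp_syl h P
  have h3 : ∀ t : T, orderOf t = 3 → Nat.card (centralizer ({t} : Set T)) = 108 := fun t ht =>
    H488.PBRow.TitsThree.card_cent_three h ht
  set N := normalizer ((P : Subgroup T) : Set T) with hN
  have B : Base ((P : Subgroup T).comap N.subtype) := base_of_hyp hH h3 N.subtype N.subtype_injective (by rw [range_subtype])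
  obtain ⟨y, hy, hy1, ho, i, hi, hc⟩ := exists_pair hH
  have hyN : y ∈ N := le_normalizer hy
  have hiN : i ∈ N := hH.le_normalizer hy ho (mem_centralizer_singleton_iff.2 hc)
  obtain ⟨g, t, -, D⟩ := B.d48 (QuotientGroup.mk' ((P : Subgroup T).subgroupOf N)) (QuotientGroup.mk'_surjective _)
    (by rw [QuotientGroup.ker_mk']; rfl) (x := ⟨y, hyN⟩) hy (fun h1 => hy1 (congrArg Subtype.val h1))
    (i := ⟨i, hiN⟩) (by rw [Subgroup.orderOf_mk, hi]) (Subtype.ext hc)
  exact D.card_classes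

section two

variable {H : Type u} [Group H] [Finite H] {N : Subgroup H}

omit [Finite H] in
/-- an element of odd order is in a subgroup of index two -/
theorem mem_of_odd (hN : N.index = 2) {x : H} (hx : Odd (orderOf x)) : x ∈ N := by
  obtain ⟨k, hk⟩ := hx
  have h1 : x ^ (orderOf x + 1) = x := by rw [pow_succ, pow_orderOf_eq_one, one_mul]
  rw [← h1, hk, show 2 * k + 1 + 1 = (k + 1) * 2 by ring, pow_mul]
  exact Subgroup.sq_mem_of_index_two hN _

/-- **`²F₄(2)`: `k(N(P)/P) = 16`** -/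
theorem count_two [f5 : Fact (Nat.Prime 5)] (hN : N.index = 2) (h : Lie.IsoTits ↥N) {x j : H} (hx : orderOf x = 5)
    (hj : orderOf j = 4) (hjN : j ∉ N) (hxj : x * j = j * x) (Q : Sylow 5 H) :
    Nat.card (ConjClasses (↥(normalizer ((Q : Subgroup H) : Set H)) ⧸
      ((Q : Subgroup H).subgroupOf (normalizer ((Q : Subgroup H) : Set H))))) = 16 := by
  have hNn : N.Normal := Subgroup.normal_of_index_eq_two hN
  have hQN : (Q : Subgroup H) ≤ N := by
    intro q hq
    apply mem_of_odd hN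
    obtain ⟨k, hk⟩ := Q.2.exists_card_eq
    have h1 := Subgroup.orderOf_dvd_natCard (Q : Subgroup H) hq
    rw [hk] at h1
    exact Odd.of_dvd_nat (by decide : Odd 5).pow h1
  let Q' : Sylow 5 ↥N := Q.subtype hQN
  have hQ' : (Q' : Subgroup ↥N) = (Q : Subgroup H).subgroupOf N := rfl
  have hH := hyp_syl h Q'
  have h3 : ∀ t : ↥N, orderOf t = 3 → Nat.card (centralizer ({t} : Set ↥N)) = 108 := fun t ht =>
    H488.PBRow.TitsThree.card_cent_three h ht
  have F := H235.TitsRow.facts h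
  obtain ⟨y, hy, hy1, ho, -⟩ := exists_pair hH
  -- move `x` to `y`
  have hxN : x ∈ N := mem_of_odd hN (by rw [hx]; decide)
  obtain ⟨g, hg⟩ := hH.exists_conj (y := ⟨x, hxN⟩) (y' := y) (by rw [Subgroup.orderOf_mk, hx]) ho
  have hgy : (g : H) * x * (g : H)⁻¹ = y := congrArg Subtype.val hg
  set j' : H := (g : H) * j * (g : H)⁻¹ with hj'
  have hj'o : orderOf j' = 4 := by rw [hj', ← MulAut.conj_apply, MulEquiv.orderOf_eq, hj]
  have hj'N : j' ∉ N := by
    intro h1
    apply hjN
    have h2 := hNn.conj_mem _ h1 (g : H)⁻¹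
    have h3 : (g : H)⁻¹ * j' * (g : H)⁻¹⁻¹ = j := by rw [hj']; group
    rwa [h3] at h2
  have hyj : (y : H) * j' = j' * y := by
    rw [← hgy, hj']
    calc (g : H) * x * (g : H)⁻¹ * ((g : H) * j * (g : H)⁻¹) = (g : H) * (x * j) * (g : H)⁻¹ := by group
      _ = (g : H) * (j * x) * (g : H)⁻¹ := by rw [hxj]
      _ = _ := by group
  clear_value j'
  have hyQ : (y : H) ∈ (Q : Subgroup H) := hy
  -- `j'` normalises `Q`
  have hnorm : ∀ c : H, (y : H) * c = c * y → c ∈ normalizer ((Q : Subgroup H) : Set H) := by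
    intro c hc
    let R : Sylow 5 H := c • Q
    have hRN : (R : Subgroup H) ≤ N := by
      show ((c • Q : Sylow 5 H) : Subgroup H) ≤ N
      rw [Sylow.coe_subgroup_smul]
      rintro _ ⟨q, hq, rfl⟩
      exact hNn.conj_mem _ (hQN hq) c
    have hyR : y ∈ ((R.subtype hRN : Sylow 5 ↥N) : Subgroup ↥N) := by
      show (y : H) ∈ ((c • Q : Sylow 5 H) : Subgroup H)
      rw [Sylow.coe_subgroup_smul]
      refine ⟨y, hyQ, ?_⟩
      show c * y * c⁻¹ = y
      rw [← hc, mul_inv_cancel_right]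
    have h1 := F.ti Q' (R.subtype hRN) hy hyR hy1
    have h2 : Q = R := Sylow.subtype_injective h1
    exact Sylow.smul_eq_iff_mem_normalizer.1 h2.symm
  set M' := normalizer ((Q : Subgroup H) : Set H) with hM'
  have hjM : j' ∈ M' := hnorm j' hyj
  have hyM : (y : H) ∈ M' := le_normalizer hyQ
  set P' := (Q : Subgroup H).subgroupOf M' with hP'
  set NM := N.subgroupOf M' with hNM
  have hP'NM : P' ≤ NM := fun p hp => hQN hp
  -- the embedding of `NM` into `N`
  let ι : ↥NM →* ↥N := (M'.subtype.comp NM.subtype).codRestrict N fun m => m.2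
  have hι : Function.Injective ι := by
    intro a b hab
    have h1 : ((a : ↥M') : H) = ((b : ↥M') : H) := congrArg (fun z : ↥N => (z : H)) hab
    exact Subtype.ext (Subtype.ext h1)
  have hr : ι.range = normalizer ((Q' : Subgroup ↥N) : Set ↥N) := by
    ext n
    constructor
    · rintro ⟨m, rfl⟩
      rw [mem_normalizer_iff]
      intro q
      have h1 := (mem_normalizer_iff.1 (m : ↥M').2 (q : H))
      exact h1
    · intro hn
      have h1 : (n : H) ∈ M' := by
        rw [hM', mem_normalizer_iff]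
        intro q
        by_cases hq : q ∈ N
        · exact mem_normalizer_iff.1 hn ⟨q, hq⟩
        · constructor
          · intro h2; exact absurd (hQN h2) hq
          · intro h2
            have h4 := hNn.conj_mem _ (hQN h2) (n : H)⁻¹
            have h5 : (n : H)⁻¹ * ((n : H) * q * (n : H)⁻¹) * (n : H)⁻¹⁻¹ = q := by group
            rw [h5] at h4
            exact absurd h4 hq
      exact ⟨⟨⟨n, h1⟩, n.2⟩, rfl⟩
  have B := base_of_hyp hH h3 ι hι hr
  -- the quotient
  let f : ↥NM →* ↥(NM.map (QuotientGroup.mk' P')) := (QuotientGroup.mk' P').subgroupMap NM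
  have hf : Function.Surjective f := MonoidHom.subgroupMap_surjective _ _
  have hker : f.ker = (Q' : Subgroup ↥N).comap ι := by
    ext m
    rw [MonoidHom.mem_ker]
    constructor
    · intro h1
      have h2 : (QuotientGroup.mk' P') (m : ↥M') = 1 := congrArg Subtype.val h1
      exact (QuotientGroup.eq_one_iff (N := P') (m : ↥M')).1 h2
    · intro h1
      apply Subtype.ext
      exact (QuotientGroup.eq_one_iff (N := P') (m : ↥M')).2 h1
  -- the involution
  have hsqN : j' ^ 2 ∈ N := Subgroup.sq_mem_of_index_two hN j'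
  have hsqM : j' ^ 2 ∈ M' := pow_mem hjM 2
  have hoi : orderOf (j' ^ 2) = 2 := by
    rw [orderOf_pow, hj'o]; rfl
  set yM : ↥NM := ⟨⟨y, hyM⟩, y.2⟩ with hyM'
  set iM : ↥NM := ⟨⟨j' ^ 2, hsqM⟩, hsqN⟩ with hiM'
  have hyP : yM ∈ (Q' : Subgroup ↥N).comap ι := hy
  have hyM1 : yM ≠ 1 := by
    intro h1
    apply hy1
    exact Subtype.ext (congrArg (fun z : ↥NM => ((z : ↥M') : H)) h1)
  have hiMo : orderOf iM = 2 := by
    rw [← hoi, ← orderOf_injective (M'.subtype.comp NM.subtype)
      ((Subgroup.subtype_injective _).comp (Subgroup.subtype_injective _)) iM]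
    rfl
  have hiyM : iM * yM = yM * iM := by
    apply Subtype.ext; apply Subtype.ext
    show j' ^ 2 * (y : H) = y * j' ^ 2
    exact ((show Commute (y : H) j' from hyj).pow_right 2).symm.eq
  obtain ⟨s, t, hs, D⟩ := B.d48 f hf hker hyP hyM1 hiMo hiyM
  -- the centralizer of `Q` in `M'`
  have hcentQ : ∀ c : ↥M', (∀ q ∈ (Q : Subgroup H), (c : H) * q = q * c) → c ∈ P' := by
    intro c hc
    have hyQM : ∀ q ∈ (Q : Subgroup H), q ∈ M' := fun q hq => le_normalizer hq
    by_cases hcN : (c : H) ∈ N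
    · have h1 := B.cent_le hyP hyM1 hiMo hiyM (c := (⟨c, hcN⟩ : ↥NM)) (by
        intro p hp
        apply Subtype.ext; apply Subtype.ext
        exact hc _ hp)
      exact h1
    · exfalso
      -- `c j'` is in `N` and commutes with `y`
      have h1 : (c : H) * j' ∈ N := by
        rw [Subgroup.mul_mem_iff_of_index_two hN]
        exact ⟨fun h => absurd h hcN, fun h => absurd h hj'N⟩
      let d : ↥NM := ⟨c * ⟨j', hjM⟩, h1⟩
      have h2 : d * yM = yM * d := by
        apply Subtype.ext; apply Subtype.ext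
        show (c : H) * j' * y = y * (c * j')
        rw [mul_assoc, ← hyj, ← mul_assoc, hc _ hyQ, mul_assoc]
      obtain ⟨p, hp, hne⟩ := B.faith iM hiMo
      apply hne
      have hpQ : ((p : ↥M') : H) ∈ (Q : Subgroup H) := hp
      have hjp : j' * (p : ↥M') * j'⁻¹ ∈ (Q : Subgroup H) := (mem_normalizer_iff.1 hjM _).1 hpQ
      have hcj : ∀ q ∈ (Q : Subgroup H), (c : H) * q * (c : H)⁻¹ = q := fun q hq => mul_inv_eq_iff_eq_mul.2 (hc q hq)
      -- the action of `d` on `Q` is that of `j'`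
      have hd : ∀ q ∈ (Q : Subgroup H), ((c : H) * j') * q * ((c : H) * j')⁻¹ = j' * q * j'⁻¹ := by
        intro q hq
        have h3 : j' * q * j'⁻¹ ∈ (Q : Subgroup H) := (mem_normalizer_iff.1 hjM _).1 hq
        calc ((c : H) * j') * q * ((c : H) * j')⁻¹ = (c : H) * (j' * q * j'⁻¹) * (c : H)⁻¹ := by group
          _ = _ := hcj _ h3
      have hcomm : ∀ a ∈ (Q : Subgroup H), ∀ b ∈ (Q : Subgroup H), a * b = b * a := by
        intro a ha b hb
        exact congrArg Subtype.val (hH.comm ⟨a, hQN ha⟩ ha ⟨b, hQN hb⟩ hb)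
      -- in both cases `j' ^ 2` centralises `Q`
      have hsq : ∀ q ∈ (Q : Subgroup H), j' ^ 2 * q * (j' ^ 2)⁻¹ = q := by
        rcases B.cases hyP hyM1 hiMo hiyM h2 with h | h
        · have h3 : (c : H) * j' ∈ (Q : Subgroup H) := h
          have h4 : ∀ q ∈ (Q : Subgroup H), j' * q * j'⁻¹ = q := by
            intro q hq
            rw [← hd q hq, mul_inv_eq_iff_eq_mul]
            exact hcomm _ h3 _ hq
          intro q hq
          calc j' ^ 2 * q * (j' ^ 2)⁻¹ = j' * (j' * q * j'⁻¹) * j'⁻¹ := by rw [pow_two]; group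
            _ = q := by rw [h4 q hq, h4 q hq]
        · have h3 : (c : H) * j' * j' ^ 2 ∈ (Q : Subgroup H) := h
          have h4 : ∀ q ∈ (Q : Subgroup H), j' * (j' ^ 2 * q * (j' ^ 2)⁻¹) * j'⁻¹ = q := by
            intro q hq
            have h5 : j' ^ 2 * q * (j' ^ 2)⁻¹ ∈ (Q : Subgroup H) := (mem_normalizer_iff.1 hsqM _).1 hq
            rw [← hd _ h5]
            calc ((c : H) * j') * (j' ^ 2 * q * (j' ^ 2)⁻¹) * ((c : H) * j')⁻¹
                = ((c : H) * j' * j' ^ 2) * q * ((c : H) * j' * j' ^ 2)⁻¹ := by group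
              _ = q := mul_inv_eq_iff_eq_mul.2 (hcomm _ h3 _ hq)
          have h44 : j' ^ 4 = 1 := by rw [← hj'o, pow_orderOf_eq_one]
          have h5 : ∀ q ∈ (Q : Subgroup H), j' * q * j'⁻¹ = q := by
            intro q hq
            -- `j'^3` acts trivially, `j'^4 = 1`
            have h6 := h4 (j' * q * j'⁻¹) ((mem_normalizer_iff.1 hjM _).1 hq)
            have h7 : j' * (j' ^ 2 * (j' * q * j'⁻¹) * (j' ^ 2)⁻¹) * j'⁻¹ = j' ^ 4 * q * (j' ^ 4)⁻¹ := by
              group
            rw [h7, h44, one_mul, inv_one, mul_one] at h6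
            exact h6.symm
          intro q hq
          calc j' ^ 2 * q * (j' ^ 2)⁻¹ = j' * (j' * q * j'⁻¹) * j'⁻¹ := by rw [pow_two]; group
            _ = q := by rw [h5 q hq, h5 q hq]
      apply Subtype.ext; apply Subtype.ext
      show j' ^ 2 * (p : ↥M') = (p : ↥M') * j' ^ 2
      exact mul_inv_eq_iff_eq_mul.1 (hsq _ hpQ)
  have E : D96 (NM.map (QuotientGroup.mk' P')) (f s) (f iM) (f t) (QuotientGroup.mk' P' ⟨j', hjM⟩) := by
    refine ⟨D, ?_, ?_, ?_, ?_⟩
    · rw [Subgroup.index_eq_two_iff]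
      refine ⟨QuotientGroup.mk' P' ⟨j', hjM⟩, fun z => ?_⟩
      obtain ⟨m, rfl⟩ := QuotientGroup.mk'_surjective P' z
      have hmm : ∀ w : ↥M', QuotientGroup.mk' P' w ∈ NM.map (QuotientGroup.mk' P') ↔ (w : H) ∈ N := by
        intro w
        constructor
        · rintro ⟨m, hm, hmw⟩
          have h1 := (QuotientGroup.eq (s := P')).1 hmw
          have h2 : (m : H)⁻¹ * w ∈ (Q : Subgroup H) := h1
          exact (N.mul_mem_cancel_left (N.inv_mem hm)).1 (hQN h2)
        · intro hw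
          exact ⟨w, hw, rfl⟩
      rw [← map_mul, hmm, hmm]
      show Xor ((m : H) * j' ∈ N) ((m : H) ∈ N)
      rw [Subgroup.mul_mem_iff_of_index_two hN]
      by_cases h1 : (m : H) ∈ N
      · right
        exact ⟨h1, fun h2 => hj'N (h2.1 h1)⟩
      · left
        exact ⟨⟨fun h2 => absurd h2 h1, fun h2 => absurd h2 hj'N⟩, h1⟩
    · intro z
      obtain ⟨m, rfl⟩ := QuotientGroup.mk'_surjective P' z
      show QuotientGroup.mk' P' (s : ↥M') * QuotientGroup.mk' P' m = QuotientGroup.mk' P' m * QuotientGroup.mk' P' (s : ↥M')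
      have hsc : ∀ q ∈ (Q : Subgroup H), ((s : ↥M') : H) * q * ((s : ↥M') : H)⁻¹ = q ^ 2 := by
        intro q hq
        have h1 := hs ⟨⟨q, le_normalizer hq⟩, hQN hq⟩ hq
        exact congrArg (fun z : ↥NM => ((z : ↥M') : H)) h1
      have h1 : (s : ↥M') * m * (s : ↥M')⁻¹ * m⁻¹ ∈ P' := by
        apply hcentQ
        intro p hp
        show ((s : ↥M') : H) * m * ((s : ↥M') : H)⁻¹ * (m : H)⁻¹ * p = p * (((s : ↥M') : H) * m * ((s : ↥M') : H)⁻¹ * (m : H)⁻¹)
        set S := ((s : ↥M') : H) with hS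
        have hSM : S ∈ M' := (s : ↥M').2
        have hcl : ∀ w : H, w ∈ M' → ∀ q ∈ (Q : Subgroup H), w⁻¹ * q * w ∈ (Q : Subgroup H) := by
          intro w hw q hq
          have := (mem_normalizer_iff.1 (inv_mem hw) q).1 hq
          rwa [inv_inv] at this
        have h2 := hcl m m.2 p hp
        have h3 := hcl S hSM _ h2
        have h4 : (S⁻¹ * ((m : H)⁻¹ * p * m) * S) ^ 2 = (m : H)⁻¹ * p * m := by
          rw [← hsc _ h3]; group
        have h5 : (m : H) * (S⁻¹ * ((m : H)⁻¹ * p * m) * S) * (m : H)⁻¹ ∈ (Q : Subgroup H) :=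
          (mem_normalizer_iff.1 m.2 _).1 h3
        rw [← mul_inv_eq_iff_eq_mul]
        calc S * m * S⁻¹ * (m : H)⁻¹ * p * (S * m * S⁻¹ * (m : H)⁻¹)⁻¹
            = S * ((m : H) * (S⁻¹ * ((m : H)⁻¹ * p * m) * S) * (m : H)⁻¹) * S⁻¹ := by group
          _ = ((m : H) * (S⁻¹ * ((m : H)⁻¹ * p * m) * S) * (m : H)⁻¹) ^ 2 := hsc _ h5
          _ = (m : H) * (S⁻¹ * ((m : H)⁻¹ * p * m) * S) ^ 2 * (m : H)⁻¹ := by
              rw [← MulAut.conj_apply, ← map_pow, MulAut.conj_apply]
          _ = (m : H) * ((m : H)⁻¹ * p * m) * (m : H)⁻¹ := by rw [h4]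
          _ = p := by group
      have h2 : QuotientGroup.mk' P' ((s : ↥M') * m * (s : ↥M')⁻¹ * m⁻¹) = 1 := (QuotientGroup.eq_one_iff _).2 h1
      rw [map_mul, map_mul, map_mul, map_inv, map_inv] at h2
      exact mul_inv_eq_iff_eq_mul.1 (mul_inv_eq_one.1 h2)
    · rintro ⟨m, hm, hmj⟩
      apply hj'N
      have h1 := (QuotientGroup.eq (s := P')).1 hmj
      have h2 : (m : H)⁻¹ * j' ∈ (Q : Subgroup H) := h1
      exact (N.mul_mem_cancel_left (N.inv_mem hm)).1 (hQN h2)
    · show QuotientGroup.mk' P' ⟨j', hjM⟩ * QuotientGroup.mk' P' ⟨j', hjM⟩ = QuotientGroup.mk' P' ⟨j' ^ 2, hsqM⟩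
      rw [← map_mul]
      congr 1
      exact Subtype.ext (pow_two j').symm
  exact E.card_classes

end two

end Cfsg.Agent.H670.TIx
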